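import Cfsg.Agent.H709.PB.Deg
import Cfsg.Agent.H843.N23

/-!
# `Fi24`: the elements of order 23 (helper304)

* `card_cent`, `hcent` : `|C(y)| = 46`;
* `hreal` : `y` is not conjugate to its inverse;
* `hNB` : the characters of `Fi24'` outside the principal 23-block have degree divisible by 23;
* `inv_comm` : an involution commuting with `y` is a transposition.
-/

set_option autoImplicit false
set_option maxRecDepth 100000

namespace Cfsg.Agent.H304.EP

open Subgroup
open Cfsg.Agent.H843 (Syl.exists_conj Cyc.dvd_card Cyc.exists_pow Cyc.mem_centralizer_zpowers Cyc.mem_normalizer)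
open Cfsg.Agent.H843.Fi24N (card_Fi24 half mem_commutator)
open Cfsg.Agent.R08.FiTwentyFour (L finite_Fi24)
open Cfsg.Agent.H709.PB (NB)
open Cfsg.Spor (Fi24)

/-- the element of order 23 -/
local notation "X" => Cfsg.Agent.H843.D23.D.x

theorem exists_conj_x {y : Fi24} (hy : orderOf y = 23) :
    ∃ g : Fi24, (zpowers X).map (MulAut.conj g).toMonoidHom = zpowers y := by
  have : Finite Fi24 := finite_Fi24
  exact Syl.exists_conj (p := 23) (by norm_num) (by rw [card_Fi24]; norm_num) (zpowers X) (zpowers y)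
    (by rw [Nat.card_zpowers]; exact Cfsg.Agent.H843.D23.order) (by rw [Nat.card_zpowers, hy])

theorem centralizer_eq (y : Fi24) : centralizer ({y} : Set Fi24) = centralizer (zpowers y : Set Fi24) := by
  ext z
  rw [mem_centralizer_singleton_iff, Cyc.mem_centralizer_zpowers]

theorem card_cent {y : Fi24} (hy : orderOf y = 23) : Nat.card (centralizer ({y} : Set Fi24)) = 46 := by
  obtain ⟨g, hg⟩ := exists_conj_x hy
  have h3 : centralizer (((zpowers X).map (MulAut.conj g).toMonoidHom : Subgroup Fi24) : Set Fi24) =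
      (centralizer (zpowers X : Set Fi24)).map (MulAut.conj g).toMonoidHom := by
    rw [H841.Transport.map_centralizer, H841.Transport.coe_map]
  rw [centralizer_eq, ← hg, h3, H841.Transport.card_map]
  exact Cfsg.Agent.H843.D23.main.2

theorem card_norm {y : Fi24} (hy : orderOf y = 23) : Nat.card (normalizer (zpowers y : Set Fi24)) = 11 * 46 := by
  obtain ⟨g, hg⟩ := exists_conj_x hy
  rw [← hg, ← H841.Transport.map_normalizer, H841.Transport.card_map]
  exact Cfsg.Agent.H843.D23.main.1

/-- **the centralizer of an element of order 23** -/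
theorem hcent (y : Fi24) (hy : orderOf y = 23) :
    ∃ m : ℕ, Nat.card (centralizer ({y} : Set Fi24)) = 2 * m ∧ ¬ 2 ∣ m := ⟨23, card_cent hy, by norm_num⟩

/-- **elements of order 23 are not real** -/
theorem hreal (y : Fi24) (hy : orderOf y = 23) : ¬ IsConj y y⁻¹ := by
  intro h
  have : Finite Fi24 := finite_Fi24
  obtain ⟨g, hg⟩ := isConj_iff.1 h
  have h1 : g * y * g⁻¹ = y ^ 22 := by
    rw [hg]
    refine inv_eq_of_mul_eq_one_left ?_
    rw [← pow_succ, show 22 + 1 = orderOf y by rw [hy], pow_orderOf_eq_one]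
  have h2 : orderOf ((22 : ℕ) : ZMod 23) = 2 := by
    have : Fact (Nat.Prime 2) := ⟨Nat.prime_two⟩
    exact orderOf_eq_prime (by decide) (by decide)
  have h3 := Cyc.dvd_card hy h1 h2
  rw [← centralizer_eq, card_cent hy, card_norm hy] at h3
  omega

/-- a transposition commuting with an element of order 23 -/
theorem exists_transp {y : Fi24} (hy : orderOf y = 23) : ∃ l ∈ L, l * y = y * l := by
  obtain ⟨g, hg⟩ := exists_conj_x hy
  have h0 : Fischer.Fi24Rep.gen .l ∈ L ∩ (centralizer (zpowers X : Set Fi24) : Set Fi24) := by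
    rw [Cfsg.Agent.H843.D23.inter]
    rfl
  refine ⟨g * Fischer.Fi24Rep.gen .l * g⁻¹, Cfsg.Agent.R08.FiTwentyFour.conj h0.1 g, ?_⟩
  have h1 : y ∈ (zpowers X).map (MulAut.conj g).toMonoidHom := by rw [hg]; exact mem_zpowers y
  obtain ⟨_, ⟨i, rfl⟩, hi⟩ := h1
  have h2 : g * X ^ i * g⁻¹ = y := hi
  have h3 : Commute (Fischer.Fi24Rep.gen .l) (X ^ i) :=
    (show Commute (Fischer.Fi24Rep.gen .l) X from Cyc.mem_centralizer_zpowers.1 h0.2).zpow_right i
  rw [← h2]
  calc g * Fischer.Fi24Rep.gen .l * g⁻¹ * (g * X ^ i * g⁻¹) = g * (Fischer.Fi24Rep.gen .l * X ^ i) * g⁻¹ := by group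
    _ = g * (X ^ i * Fischer.Fi24Rep.gen .l) * g⁻¹ := by rw [h3.eq]
    _ = _ := by group

/-- **the principal 23-block of `Fi24'`** -/
theorem hNB : NB 23 1 (commutator Fi24) := by
  have hfin : Finite Fi24 := finite_Fi24
  have : Fact (Nat.Prime 23) := ⟨by norm_num⟩
  have ho : orderOf X = 23 := Cfsg.Agent.H843.D23.order
  have hX : X ∈ commutator Fi24 := mem_commutator (by rw [ho]; decide)
  obtain ⟨l, hl, hlc⟩ := exists_transp ho
  have h1 := half (H := centralizer ({X} : Set Fi24)) (mem_centralizer_singleton_iff.2 hlc) hl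
  rw [card_cent ho] at h1
  have h2 : Nat.card (commutator Fi24 ⊓ centralizer ({X} : Set Fi24) : Subgroup Fi24) = 23 := by omega
  refine NB.of_self (g := (⟨X, hX⟩ : commutator Fi24)) ?_ ⟨1, by rw [Subgroup.orderOf_mk, ho, pow_one]⟩
  refine IsPGroup.of_card (n := 1) ?_
  rw [pow_one, ← h2, ← card_map_of_injective (K := centralizer ({(⟨X, hX⟩ : commutator Fi24)} : Set (commutator Fi24)))
    (commutator Fi24).subtype_injective]
  congr 1
  have h4 : (centralizer ({(⟨X, hX⟩ : commutator Fi24)} : Set (commutator Fi24))).map (commutator Fi24).subtype =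
      commutator Fi24 ⊓ centralizer ({X} : Set Fi24) := by
    ext g
    simp only [mem_inf, mem_map, Subgroup.coe_subtype]
    constructor
    · rintro ⟨y, h1, rfl⟩
      exact ⟨y.2, mem_centralizer_singleton_iff.2 (congrArg Subtype.val (mem_centralizer_singleton_iff.1 h1))⟩
    · rintro ⟨h1, h2⟩
      exact ⟨⟨g, h1⟩, mem_centralizer_singleton_iff.2 (Subtype.ext (mem_centralizer_singleton_iff.1 h2)), rfl⟩
  rw [h4]

/-- **an involution commuting with an element of order 23 is a transposition** -/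
theorem inv_comm {y t : Fi24} (hy : orderOf y = 23) (ht : orderOf t = 2) (hc : t * y = y * t) : t ∈ L := by
  have hfin : Finite Fi24 := finite_Fi24
  obtain ⟨l, hl, hlc⟩ := exists_transp hy
  have hl2 : orderOf l = 2 := by
    have : Fact (Nat.Prime 2) := ⟨Nat.prime_two⟩
    refine orderOf_eq_prime ?_ (Cfsg.Agent.R08.FiTwentyFour.ne_one_L hl)
    rw [pow_two]
    exact Cfsg.Agent.R08.FiTwentyFour.sq hl
  obtain ⟨C, hC⟩ : ∃ C : Subgroup Fi24, C = centralizer ({y} : Set Fi24) := ⟨_, rfl⟩
  have cC : Nat.card C = 46 := by rw [hC]; exact card_cent hy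
  have tC : t ∈ C := by rw [hC]; exact mem_centralizer_singleton_iff.2 hc
  have lC : l ∈ C := by rw [hC]; exact mem_centralizer_singleton_iff.2 hlc
  obtain ⟨g, hg⟩ := Syl.exists_conj (G := C) (p := 2) Nat.prime_two (by rw [cC]; norm_num)
    (zpowers ⟨l, lC⟩) (zpowers ⟨t, tC⟩) (by rw [Nat.card_zpowers, Subgroup.orderOf_mk, hl2])
    (by rw [Nat.card_zpowers, Subgroup.orderOf_mk, ht])
  have h1 : (⟨t, tC⟩ : C) ∈ (zpowers (⟨l, lC⟩ : C)).map (MulAut.conj g).toMonoidHom := by
    rw [hg]; exact mem_zpowers _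
  obtain ⟨_, ⟨i, rfl⟩, hi⟩ := h1
  have h2 : (g : Fi24) * l ^ i * (g : Fi24)⁻¹ = t := congrArg Subtype.val hi
  have hsq : l * l = 1 := Cfsg.Agent.R08.FiTwentyFour.sq hl
  rcases Int.even_or_odd' i with ⟨k, rfl | rfl⟩
  · exfalso
    rw [zpow_mul, show l ^ (2 : ℤ) = l * l from zpow_two l, hsq, one_zpow, mul_one, mul_inv_cancel] at h2
    rw [← h2, orderOf_one] at ht
    omega
  · rw [zpow_add, zpow_mul, show l ^ (2 : ℤ) = l * l from zpow_two l, hsq, one_zpow, one_mul, zpow_one] at h2
    rw [← h2]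
    exact Cfsg.Agent.R08.FiTwentyFour.conj hl g

end Cfsg.Agent.H304.EP
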